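import Cfsg.Agent.H767.U6.Cover

/-!
# A noncentral element of `SU₆(2)` maps an isotropic vector to a nonperpendicular one (helper767)
-/

set_option autoImplicit false
set_option linter.unusedSectionVars false
set_option maxRecDepth 100000

namespace Cfsg.Agent.H767.K7

open Cfsg Matrix Cfsg.Agent.SporadicA.PermTab Cfsg.Agent.H767.U6
open Cfsg.Agent.LieClassical.HermBasic Cfsg.Agent.ClassicalGeometry.PSUAutCount
open Cfsg.Agent.LieClassical.HermSiegel (mat mat_mul mat_injective act act_def)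

/-- the hermitian product of two codes -/
def hc (u v : ℕ) : ℕ :=
  Nat.xor (mulc (cv u 0) (mulc (cv v 0) (cv v 0))) (Nat.xor (mulc (cv u 1) (mulc (cv v 1) (cv v 1)))
    (Nat.xor (mulc (cv u 2) (mulc (cv v 2) (cv v 2))) (Nat.xor (mulc (cv u 3) (mulc (cv v 3) (cv v 3)))
      (Nat.xor (mulc (cv u 4) (mulc (cv v 4) (cv v 4))) (mulc (cv u 5) (mulc (cv v 5) (cv v 5)))))))

/-- vectors -/
def IV : List (ℕ × ℕ) := [(0, 0), (5, 14), (6, 9), (5, 33), (5, 19), (5, 44), (5, 14), (5, 9), (5, 51), (5, 1694), (6, 20), (7, 200), (5, 632), (17, 36), (5, 356), (5, 658), (5, 200), (5, 13), (5, 40), (5, 105), (6, 14), (5, 3468), (6, 90), (6, 3114), (5, 14), (5, 9), (6, 2425), (5, 9), (5, 2414), (5, 444), (5, 34), (7, 66), (5, 119), (5, 9), (6, 433), (5, 67), (5, 44), (5, 93), (5, 214), (6, 947)]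

theorem iv_all : allB (fun i => bif Nat.beq i 0 then true else
    (band (stepB (XP.getD i 0) (IV.getD i (0, 0)).1 (IV.getD i (0, 0)).2)
      (band (Nat.beq (hc (IV.getD i (0, 0)).1 (IV.getD i (0, 0)).1) 0)
        (Nat.blt 0 (hc (IV.getD i (0, 0)).1 (IV.getD i (0, 0)).2))))) 40 = true := by decide +kernel

section

variable {F : Type*} [Field F] [Fintype F] {w : F}

theorem hc_lt (u v : ℕ) : hc u v < 4 := by
  have l := fun k : ℕ => mulc_lt (cv u k) (mulc (cv v k) (cv v k))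
  exact xor_lt (l 0) (xor_lt (l 1) (xor_lt (l 2) (xor_lt (l 3) (xor_lt (l 4) (l 5)))))

theorem hc_eq (h2 : (2 : F) = 0) (hw : w ^ 2 + w + 1 = 0) (u v : ℕ) :
    d4 w (hc u v) = hermForm 6 F 2 (vec w u) (vec w v) := by
  have m := fun k : ℕ => d4_mulc h2 hw (cv_lt u k) (mulc_lt (cv v k) (cv v k))
  have m' := fun k : ℕ => d4_mulc h2 hw (cv_lt v k) (cv_lt v k)
  have l := fun k : ℕ => mulc_lt (cv u k) (mulc (cv v k) (cv v k))
  unfold hc
  rw [d4_xor h2 (l 0) (xor_lt (l 1) (xor_lt (l 2) (xor_lt (l 3) (xor_lt (l 4) (l 5))))),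
    d4_xor h2 (l 1) (xor_lt (l 2) (xor_lt (l 3) (xor_lt (l 4) (l 5)))),
    d4_xor h2 (l 2) (xor_lt (l 3) (xor_lt (l 4) (l 5))), d4_xor h2 (l 3) (xor_lt (l 4) (l 5)),
    d4_xor h2 (l 4) (l 5), m, m, m, m, m, m, m', m', m', m', m', m']
  rw [herm_two]
  show _ = d4 w (cv u 0) * d4 w (cv v 0) ^ 2 + d4 w (cv u 1) * d4 w (cv v 1) ^ 2 + d4 w (cv u 2) * d4 w (cv v 2) ^ 2 +
    d4 w (cv u 3) * d4 w (cv v 3) ^ 2 + d4 w (cv u 4) * d4 w (cv v 4) ^ 2 + d4 w (cv u 5) * d4 w (cv v 5) ^ 2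
  ring

/-- scalar matrices are central -/
theorem mem_center_of_scalar {g : SU 6 F 2} {c : F} (h : mat g = c • (1 : Matrix (Fin 6) (Fin 6) F)) :
    g ∈ Subgroup.center (SU 6 F 2) := by
  rw [Subgroup.mem_center_iff]
  intro k
  apply mat_injective
  rw [mat_mul, mat_mul, h, Matrix.mul_smul, Matrix.smul_mul, Matrix.mul_one, Matrix.one_mul]

/-- **Noncentral elements move an isotropic point to an opposite one.** -/
theorem exists_opp (hF : Fintype.card F = 2 ^ 2) (g : SU 6 F 2) (hg : g ∉ Subgroup.center (SU 6 F 2)) :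
    ∃ v : Fin 6 → F, hermForm 6 F 2 v v = 0 ∧ hermForm 6 F 2 v (act g v) ≠ 0 := by
  obtain ⟨w, hw⟩ : ∃ w : F, w ^ 2 + w + 1 = 0 := by
    obtain ⟨a, ha⟩ : ∃ a : F, a ≠ 0 ∧ a ≠ 1 := by
      by_contra hcon
      push Not at hcon
      classical
      have h1 : (Finset.univ : Finset F) ⊆ {0, 1} := by
        intro x _
        rw [Finset.mem_insert, Finset.mem_singleton]
        by_cases hx : x = 0
        · exact Or.inl hx
        · exact Or.inr (hcon x hx)
      have h3 := Finset.card_le_card h1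
      rw [Finset.card_univ, hF] at h3
      have h4 : ({0, 1} : Finset F).card ≤ 2 := Finset.card_le_two
      omega
    have h4 := four hF a
    have h5 : a * ((a - 1) * (a ^ 2 + a + 1)) = 0 := by linear_combination h4
    rcases mul_eq_zero.1 h5 with h6 | h6
    · exact absurd h6 ha.1
    · rcases mul_eq_zero.1 h6 with h7 | h7
      · exact absurd (sub_eq_zero.1 h7) ha.2
      · exact ⟨a, h7⟩
  have h2 := two hF
  obtain ⟨i, hi, l, hl, c, hc'⟩ := cover hF hw g
  have hl0 : d4 w l ≠ 0 := by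
    intro h0
    have hl4 : l < 4 := by omega
    have := d4_inj h2 hw hl4 (by norm_num : 0 < 4) h0
    omega
  have hmat : mat g = gm c⁻¹ * ((d4 w l • X w i) * gm c) := by
    rw [← hc', ← Matrix.mul_assoc, gm_inv_mul, Matrix.one_mul]
  by_cases hi0 : i = 0
  · exfalso
    apply hg
    subst hi0
    have hX : X w 0 = (1 : Matrix (Fin 6) (Fin 6) F) := mt_pid
    apply mem_center_of_scalar (c := d4 w l)
    rw [hmat, hX, Matrix.smul_mul, Matrix.one_mul, Matrix.mul_smul, gm_inv_mul]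
  have key := (allB_iff _ _).1 iv_all i hi
  have hbi : Nat.beq i 0 = false := by
    rw [Bool.eq_false_iff]
    intro h
    exact hi0 (Nat.eq_of_beq_eq_true h)
  rw [hbi, cond_false, band_eq_true, band_eq_true, Nat.blt_eq] at key
  obtain ⟨k1, k2, k3⟩ := key
  set n := (IV.getD i (0, 0)).1
  set m := (IV.getD i (0, 0)).2
  have e1 : vec w m = X w i *ᵥ vec w n := stepB_eq h2 hw k1
  have e2 : hermForm 6 F 2 (vec w n) (vec w n) = 0 := by
    rw [← hc_eq h2 hw, Nat.eq_of_beq_eq_true k2]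
    rfl
  have e3 : hermForm 6 F 2 (vec w n) (vec w m) ≠ 0 := by
    rw [← hc_eq h2 hw]
    intro h0
    have := d4_inj h2 hw (hc_lt n m) (by norm_num : 0 < 4) h0
    omega
  refine ⟨gm c⁻¹ *ᵥ vec w n, by rw [herm_gm]; exact e2, ?_⟩
  have e4 : act g (gm c⁻¹ *ᵥ vec w n) = gm c⁻¹ *ᵥ (d4 w l • vec w m) := by
    rw [act_def, hmat, mulVec_mulVec, Matrix.mul_assoc, Matrix.mul_assoc, gm_mul_inv, Matrix.mul_one,
      ← mulVec_mulVec, Matrix.smul_mulVec, e1]
  rw [e4, herm_gm, herm_smul_right]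
  exact mul_ne_zero (pow_ne_zero _ hl0) e3

end

end Cfsg.Agent.H767.K7
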